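import Mathlib
import Cfsg.Agent.Lib.Helper36.Stu.Defs

set_option autoImplicit false

namespace Cfsg.Agent.Lib.Helper93.Stu

open Cfsg.Agent.Lib.Helper36.Stu

universe u w

section core

variable {G : Type u} [Group G] [Finite G] {V : Type w} [AddCommGroup V] [Module ℂ V]
  [FiniteDimensional ℂ V]

/-- The twisted averaging idempotent of a linear character `lam` of `U`, for a representation
whose trace vanishes on `U \ {1}`. -/
theorem m1_avg (ρ : Representation ℂ G V) (U : Subgroup G) (lam : G → ℂ)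
    (hlam : ∀ u ∈ U, ∀ u' ∈ U, lam (u * u') = lam u * lam u') (hlam1 : lam 1 = 1)
    (hχ0 : ∀ u ∈ U, u ≠ 1 → LinearMap.trace ℂ V (ρ u) = 0) :
    ∃ e : Module.End ℂ V, (∀ u₀ ∈ U, ρ u₀ * e = lam u₀ • e) ∧ (∀ u₀ ∈ U, e * ρ u₀ = lam u₀ • e) ∧
      e * e = e ∧
      LinearMap.trace ℂ V e = (Nat.card U : ℂ)⁻¹ * (Module.finrank ℂ V : ℂ) := by
  classical
  let _ : Fintype U := Fintype.ofFinite U
  have hUcard : (Nat.card U : ℂ) ≠ 0 := by
    have : 0 < Nat.card U := Nat.card_pos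
    exact_mod_cast this.ne'
  have hlam_ne : ∀ u ∈ U, lam u ≠ 0 := by
    intro u hu h0
    have h1 := hlam u hu u⁻¹ (U.inv_mem hu)
    rw [mul_inv_cancel, hlam1, h0, zero_mul] at h1
    exact one_ne_zero h1
  obtain ⟨e, he⟩ : ∃ e : Module.End ℂ V,
      e = (Nat.card U : ℂ)⁻¹ • ∑ u : U, (lam (u : G))⁻¹ • ρ (u : G) := ⟨_, rfl⟩
  have h_left : ∀ u₀ ∈ U, ρ u₀ * e = lam u₀ • e := by
    intro u₀ hu₀
    have hsum : ρ u₀ * ∑ u : U, (lam (u : G))⁻¹ • ρ (u : G)
        = lam u₀ • ∑ u : U, (lam (u : G))⁻¹ • ρ (u : G) := by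
      rw [Finset.mul_sum, Finset.smul_sum]
      apply Fintype.sum_equiv (Equiv.mulLeft (⟨u₀, hu₀⟩ : U))
      intro u
      simp only [Equiv.coe_mulLeft, Subgroup.coe_mul]
      rw [mul_smul_comm, ← map_mul, hlam u₀ hu₀ u u.2, mul_inv, smul_smul, ← mul_assoc,
        mul_inv_cancel₀ (hlam_ne u₀ hu₀), one_mul]
    rw [he, mul_smul_comm, hsum, smul_comm]
  have h_right : ∀ u₀ ∈ U, e * ρ u₀ = lam u₀ • e := by
    intro u₀ hu₀
    have hsum : (∑ u : U, (lam (u : G))⁻¹ • ρ (u : G)) * ρ u₀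
        = lam u₀ • ∑ u : U, (lam (u : G))⁻¹ • ρ (u : G) := by
      rw [Finset.sum_mul, Finset.smul_sum]
      apply Fintype.sum_equiv (Equiv.mulRight (⟨u₀, hu₀⟩ : U))
      intro u
      simp only [Equiv.coe_mulRight, Subgroup.coe_mul]
      rw [smul_mul_assoc, ← map_mul, hlam u u.2 u₀ hu₀, mul_inv, smul_smul, mul_comm (lam u₀),
        mul_assoc, inv_mul_cancel₀ (hlam_ne u₀ hu₀), mul_one]
    rw [he, smul_mul_assoc, hsum, smul_comm]
  refine ⟨e, h_left, h_right, ?_, ?_⟩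
  · have h1 : e * e = ((Nat.card U : ℂ)⁻¹ • ∑ u : U, (lam (u : G))⁻¹ • ρ (u : G)) * e := by
      conv_lhs => arg 1; rw [he]
    rw [h1, smul_mul_assoc, Finset.sum_mul]
    have h2 : ∀ u : U, ((lam (u : G))⁻¹ • ρ (u : G)) * e = e := by
      intro u
      rw [smul_mul_assoc, h_left u u.2, smul_smul, inv_mul_cancel₀ (hlam_ne u u.2), one_smul]
    rw [Finset.sum_congr rfl (fun u _ => h2 u), Finset.sum_const, Finset.card_univ,
      ← Nat.card_eq_fintype_card, ← Nat.cast_smul_eq_nsmul ℂ, smul_smul,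
      inv_mul_cancel₀ hUcard, one_smul]
  · rw [he, map_smul, map_sum, smul_eq_mul]
    congr 1
    rw [Finset.sum_eq_single (1 : U)]
    · simp [hlam1, LinearMap.trace_one]
    · intro u _ hu
      rw [map_smul, hχ0 u u.2 (fun h => hu (Subtype.ext h)), smul_zero]
    · intro h
      exact absurd (Finset.mem_univ _) h

/-- Gelfand–Graev multiplicity one, representation form. -/
theorem m1_core (ρ : Representation ℂ G V) [Nontrivial V]
    (hirr : ∀ W : Submodule ℂ V, (∀ g, ∀ v ∈ W, ρ g v ∈ W) → W = ⊥ ∨ W = ⊤)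
    (U B : Subgroup G) (lam : G → ℂ) (g₀ : G)
    (hnorm : ∀ b ∈ B, ∀ u ∈ U, b * u * b⁻¹ ∈ U)
    (hab : ∀ b ∈ B, ∀ b' ∈ B, b * b' * b⁻¹ * b'⁻¹ ∈ U)
    (hlam : ∀ u ∈ U, ∀ u' ∈ U, lam (u * u') = lam u * lam u') (hlam1 : lam 1 = 1)
    (hcov : ∀ g : G, (∃ u ∈ U, ∃ b ∈ B, g = u * g₀ * b) ∨
      (∃ u ∈ U, g⁻¹ * u * g ∈ U ∧ lam u ≠ 1))
    (hχ0 : ∀ u ∈ U, u ≠ 1 → LinearMap.trace ℂ V (ρ u) = 0) :
    (Module.finrank ℂ V : ℂ) = (Nat.card U : ℂ) := by
  classical
  have hUcard : (Nat.card U : ℂ) ≠ 0 := by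
    have : 0 < Nat.card U := Nat.card_pos
    exact_mod_cast this.ne'
  have hfr : (Module.finrank ℂ V : ℂ) ≠ 0 := by
    have : 0 < Module.finrank ℂ V := Module.finrank_pos
    exact_mod_cast this.ne'
  -- the fixed space of `U`
  obtain ⟨e₁, h1l, -, -, h1t⟩ := m1_avg ρ U (fun _ => (1 : ℂ)) (fun _ _ _ _ => by simp) rfl hχ0
  have he₁ : e₁ ≠ 0 := by
    intro h0
    rw [h0, map_zero] at h1t
    exact (mul_ne_zero (inv_ne_zero hUcard) hfr) h1t.symm
  obtain ⟨x₁, hx₁⟩ : ∃ x, e₁ x ≠ 0 := by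
    by_contra hcon
    push Not at hcon
    exact he₁ (LinearMap.ext hcon)
  let W : Submodule ℂ V :=
    { carrier := {v | ∀ u ∈ U, ρ u v = v}
      add_mem' := fun {a b} ha hb u hu => by rw [map_add, ha u hu, hb u hu]
      zero_mem' := fun u _ => map_zero _
      smul_mem' := fun c a ha u hu => by rw [map_smul, ha u hu] }
  have hWmem : ∀ v, v ∈ W ↔ ∀ u ∈ U, ρ u v = v := fun v => Iff.rfl
  have hx₁W : e₁ x₁ ∈ W := by
    intro u hu
    have := congrArg (fun f : Module.End ℂ V => f x₁) (h1l u hu)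
    simpa using this
  have hWB : ∀ b ∈ B, ∀ v ∈ W, ρ b v ∈ W := by
    intro b hb v hv u hu
    have h1 : b⁻¹ * u * b ∈ U := by
      have := hnorm b⁻¹ (B.inv_mem hb) u hu
      simpa using this
    have h2 : u * b = b * (b⁻¹ * u * b) := by group
    rw [← Module.End.mul_apply, ← map_mul, h2, map_mul, Module.End.mul_apply, hv _ h1]
  -- a minimal nonzero `B`-stable subspace of `W`
  let 𝒮 : Set (Submodule ℂ V) :=
    {W' | W' ≠ ⊥ ∧ W' ≤ W ∧ ∀ b ∈ B, ∀ v ∈ W', ρ b v ∈ W'}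
  have h𝒮 : 𝒮.Nonempty := by
    refine ⟨W, ?_, le_rfl, hWB⟩
    intro h0
    have : e₁ x₁ ∈ (⊥ : Submodule ℂ V) := h0 ▸ hx₁W
    exact hx₁ (by simpa using this)
  obtain ⟨W₀, hW₀, hmin⟩ := (wellFounded_lt (α := Submodule ℂ V)).has_min 𝒮 h𝒮
  obtain ⟨hW₀ne, hW₀W, hW₀B⟩ := hW₀
  have hscal : ∀ b ∈ B, ∃ μ : ℂ, ∀ v ∈ W₀, ρ b v = μ • v := by
    intro b hb
    have : Nontrivial W₀ := Submodule.nontrivial_iff_ne_bot.mpr hW₀ne
    let f : Module.End ℂ W₀ := (ρ b).restrict (fun v hv => hW₀B b hb v hv)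
    obtain ⟨μ, hμ⟩ := Module.End.exists_eigenvalue f
    obtain ⟨w, hw⟩ := hμ.exists_hasEigenvector
    have hw1 : ρ b (w : V) = μ • (w : V) := by
      have := congrArg (Subtype.val) hw.apply_eq_smul
      simpa [f] using this
    have hw0 : (w : V) ≠ 0 := fun h => hw.2 (Subtype.ext h)
    let E : Submodule ℂ V := W₀ ⊓ LinearMap.ker (ρ b - μ • (1 : Module.End ℂ V))
    have hEmem : ∀ v, v ∈ E ↔ v ∈ W₀ ∧ ρ b v = μ • v := by
      intro v
      simp only [E, Submodule.mem_inf, LinearMap.mem_ker, LinearMap.sub_apply,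
        LinearMap.smul_apply, Module.End.one_apply, sub_eq_zero]
    have hE𝒮 : E ∈ 𝒮 := by
      refine ⟨?_, fun v hv => hW₀W ((hEmem v).1 hv).1, ?_⟩
      · intro h0
        have : (w : V) ∈ E := (hEmem _).2 ⟨w.2, hw1⟩
        rw [h0] at this
        exact hw0 (by simpa using this)
      · intro b' hb' v hv
        obtain ⟨hv1, hv2⟩ := (hEmem v).1 hv
        refine (hEmem _).2 ⟨hW₀B b' hb' v hv1, ?_⟩
        have hc : b⁻¹ * b'⁻¹ * b * b' ∈ U := by
          have := hab b⁻¹ (B.inv_mem hb) b'⁻¹ (B.inv_mem hb')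
          simpa using this
        have h2 : b * b' = b' * b * (b⁻¹ * b'⁻¹ * b * b') := by group
        have hvW : v ∈ W := hW₀W hv1
        rw [← Module.End.mul_apply, ← map_mul, h2, map_mul, map_mul, Module.End.mul_apply,
          Module.End.mul_apply, hvW _ hc, hv2, map_smul]
    have hEle : E ≤ W₀ := inf_le_left
    have hEeq : E = W₀ := by
      by_contra hne
      exact hmin E hE𝒮 (lt_of_le_of_ne hEle hne)
    exact ⟨μ, fun v hv => ((hEmem v).1 (hEeq ▸ hv)).2⟩
  obtain ⟨v₀, hv₀W₀, hv₀ne⟩ := (Submodule.ne_bot_iff W₀).1 hW₀ne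
  have hv₀U : ∀ u ∈ U, ρ u v₀ = v₀ := hW₀W hv₀W₀
  have hv₀B : ∀ b ∈ B, ∃ μ : ℂ, ρ b v₀ = μ • v₀ := by
    intro b hb
    obtain ⟨μ, hμ⟩ := hscal b hb
    exact ⟨μ, hμ v₀ hv₀W₀⟩
  -- the span of the orbit of `v₀`
  let S : Submodule ℂ V := Submodule.span ℂ (Set.range fun g : G => ρ g v₀)
  have hSG : ∀ g, ∀ v ∈ S, ρ g v ∈ S := by
    intro g v hv
    refine Submodule.span_induction (p := fun v _ => ρ g v ∈ S) ?_ ?_ ?_ ?_ hv
    · rintro _ ⟨h, rfl⟩
      refine Submodule.subset_span ⟨g * h, ?_⟩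
      simp [map_mul]
    · simp
    · intro a b _ _ ha hb
      rw [map_add]
      exact S.add_mem ha hb
    · intro c a _ ha
      rw [map_smul]
      exact S.smul_mem c ha
  have hStop : S = ⊤ := by
    rcases hirr S hSG with h | h
    · exfalso
      have : v₀ ∈ S := Submodule.subset_span ⟨1, by simp⟩
      rw [h] at this
      exact hv₀ne (by simpa using this)
    · exact h
  -- the idempotent of `lam`
  obtain ⟨e, hel, her, hidem, htr⟩ := m1_avg ρ U lam hlam hlam1 hχ0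
  let w₀ : V := e (ρ g₀ v₀)
  have hrange : ∀ x, e x ∈ Submodule.span ℂ ({w₀} : Set V) := by
    intro x
    have hx : x ∈ S := hStop ▸ Submodule.mem_top
    refine Submodule.span_induction
      (p := fun x _ => e x ∈ Submodule.span ℂ ({w₀} : Set V)) ?_ ?_ ?_ ?_ hx
    · rintro _ ⟨g, rfl⟩
      rcases hcov g with ⟨u, hu, b, hb, rfl⟩ | ⟨u, hu, hu', hne⟩
      · obtain ⟨μ, hμ⟩ := hv₀B b hb
        have h1 : e (ρ (u * g₀ * b) v₀) = (μ * lam u) • w₀ := by
          have h2 := congrArg (fun f : Module.End ℂ V => f (ρ g₀ v₀)) (her u hu)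
          simp only [Module.End.mul_apply, LinearMap.smul_apply] at h2
          rw [map_mul, map_mul, Module.End.mul_apply, Module.End.mul_apply, hμ, map_smul,
            map_smul, map_smul, h2, smul_smul]
        rw [h1]
        exact Submodule.smul_mem _ _ (Submodule.mem_span_singleton_self _)
      · have h2 := congrArg (fun f : Module.End ℂ V => f (ρ g v₀)) (her u hu)
        simp only [Module.End.mul_apply, LinearMap.smul_apply] at h2
        have h3 : ρ u (ρ g v₀) = ρ g v₀ := by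
          have h4 : u * g = g * (g⁻¹ * u * g) := by group
          rw [← Module.End.mul_apply, ← map_mul, h4, map_mul, Module.End.mul_apply,
            hv₀U _ hu']
        rw [h3] at h2
        have h5 : (lam u - 1) • e (ρ g v₀) = 0 := by
          rw [sub_smul, one_smul, ← h2, sub_self]
        have h6 : e (ρ g v₀) = 0 := by
          rcases smul_eq_zero.1 h5 with h | h
          · exact absurd (sub_eq_zero.1 h) hne
          · exact h
        rw [h6]
        exact Submodule.zero_mem _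
    · simp
    · intro a b _ _ ha hb
      rw [map_add]
      exact Submodule.add_mem _ ha hb
    · intro c a _ ha
      rw [map_smul]
      exact Submodule.smul_mem _ c ha
  have hrk : Module.finrank ℂ (LinearMap.range e) ≤ 1 := by
    have hle : LinearMap.range e ≤ Submodule.span ℂ ({w₀} : Set V) := by
      rintro _ ⟨x, rfl⟩
      exact hrange x
    refine (Submodule.finrank_mono hle).trans ?_
    have := finrank_span_le_card (R := ℂ) ({w₀} : Set V)
    simpa using this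
  have hproj : LinearMap.trace ℂ V e = (Module.finrank ℂ (LinearMap.range e) : ℂ) :=
    (LinearMap.IsIdempotentElem.isProj_range e hidem).trace
  rw [htr] at hproj
  have hrk1 : Module.finrank ℂ (LinearMap.range e) = 1 := by
    rcases Nat.le_one_iff_eq_zero_or_eq_one.1 hrk with h | h
    · exfalso
      rw [h, Nat.cast_zero] at hproj
      exact (mul_ne_zero (inv_ne_zero hUcard) hfr) hproj
    · exact h
  rw [hrk1, Nat.cast_one] at hproj
  field_simp at hproj
  exact hproj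

end core

/-- Package MULT1. -/
theorem pkgMult1 : PkgMult1.{u} := by
  intro G _ _ U B lam g₀ χ _ hnorm hab hlam hlam1 _ hcov hχ hχ0
  obtain ⟨n, ρ, hirr, rfl⟩ := hχ
  have : Nontrivial (Fin n → ℂ) := by
    have h : Nontrivial (Subrepresentation ρ) := hirr.toNontrivial
    by_contra hV
    rw [not_nontrivial_iff_subsingleton] at hV
    obtain ⟨a, b, hab'⟩ := h
    exact hab' (Subrepresentation.toSubmodule_injective (Subsingleton.elim _ _))
  have hirr' : ∀ W : Submodule ℂ (Fin n → ℂ), (∀ g, ∀ v ∈ W, ρ g v ∈ W) → W = ⊥ ∨ W = ⊤ := by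
    intro W hW
    rcases hirr.eq_bot_or_eq_top (⟨W, fun g v hv => hW g v hv⟩ : Subrepresentation ρ) with h | h
    · left
      exact congrArg Subrepresentation.toSubmodule h
    · right
      exact congrArg Subrepresentation.toSubmodule h
  have key := m1_core ρ hirr' U B lam g₀ hnorm hab hlam hlam1 hcov
    (fun u hu hne => hχ0 u hu hne)
  rw [← key]
  simp [Representation.character, LinearMap.trace_one]

end Cfsg.Agent.Lib.Helper93.Stu
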